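import Cfsg.Agent.R2.T1.Odd.Nine7
import Cfsg.Agent.R2.T1.Odd.No32
import Cfsg.Agent.R2.T1.Odd.NoCov
import Cfsg.Agent.R2.T1.Nodd.Fin

/-!
# S5771, ODD5: output for `n = 9`, `p ≥ 5`, and `n = 10`, `p = 5` (helper11)

* `nine`, `ten` : the 3-cycles have 32 eigenvalues 1;
* `nine_false`, `ten_false` : contradiction with `Nodd.d3_twenty`;
* `le_eight` : `n = 8`, or `p = 3` and `n = 9`.
-/

set_option autoImplicit false

universe u

namespace Cfsg.Agent.R2.T1.Odd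

open Module Cfsg Cfsg.Lie
open Cfsg.Agent.H952.F4 (ev es matRep MaxAlt)
open Cfsg.Agent.R2.T1.Nodd (d3_cases d3_twenty le_ten)

section
variable {F : Type u} [Field F] [Finite F]

omit [Finite F] in
theorem seven_ne (h2 : (2 : F) ≠ 0) (h5 : (5 : F) = 0) : (7 : F) ≠ 0 := by
  intro h7
  apply h2
  have : (7 : F) = 5 + 2 := by norm_num
  rw [this, h5, zero_add] at h7
  exact h7

/-- **`n = 9`, `p ≥ 5`** -/
theorem nine_ne (h2 : (2 : F) ≠ 0) (h3 : (3 : F) ≠ 0) {ψ : ↥(alternatingGroup (Fin 9)) →* Gh F}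
    (hψ : ∀ a, ad F (ψ a) = 1 → a = 1) : ev (V F (ψ (P 9 l3))) 1 ≠ 20 := by
  by_cases h5 : (5 : F) = 0
  · exact nine5 h2 h3 hψ le_rfl (seven_ne h2 h5)
  · exact nine7 h2 h3 h5 hψ

theorem nine (h2 : (2 : F) ≠ 0) (h3 : (3 : F) ≠ 0) {ψ : ↥(alternatingGroup (Fin 9)) →* Gh F}
    (hψ : ∀ a, ad F (ψ a) = 1 → a = 1) : ev (V F (ψ (P 9 l3))) 1 = 32 :=
  (d3_cases h2 h3 hψ (by norm_num)).resolve_left (nine_ne h2 h3 hψ)

omit [Finite F] in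
theorem three_ne (h2 : (2 : F) ≠ 0) (h5 : (5 : F) = 0) : (3 : F) ≠ 0 := by
  intro h7
  apply h2
  have : (5 : F) = 3 + 2 := by norm_num
  rw [this, h7, zero_add] at h5
  exact h5

/-- **`n = 10`, `p = 5`** -/
theorem ten_ne (h2 : (2 : F) ≠ 0) (h5 : (5 : F) = 0) {ψ : ↥(alternatingGroup (Fin 10)) →* Gh F}
    (hψ : ∀ a, ad F (ψ a) = 1 → a = 1) : ev (V F (ψ (P 10 l3))) 1 ≠ 20 :=
  nine5 h2 (three_ne h2 h5) hψ (by norm_num) (seven_ne h2 h5)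

theorem ten (h2 : (2 : F) ≠ 0) (h5 : (5 : F) = 0) {ψ : ↥(alternatingGroup (Fin 10)) →* Gh F}
    (hψ : ∀ a, ad F (ψ a) = 1 → a = 1) : ev (V F (ψ (P 10 l3))) 1 = 32 :=
  (d3_cases h2 (three_ne h2 h5) hψ (by norm_num)).resolve_left (ten_ne h2 h5 hψ)

end

section
variable {F : Type u} [Field F] [Finite F] {n : ℕ} {H : Subgroup ↥(chevE7.group F)}
  {φ : ↥(alternatingGroup (Fin n)) →* ↥(chevE7.group F)} {ψ : ↥(alternatingGroup (Fin n)) →* Gh F}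

/-- `n = 8`, or `p = 3` and `n = 9` -/
theorem le_eight (hn : 8 ≤ n) (h2 : (2 : F) ≠ 0) (hM : MaxAlt H n φ) (hL : Lift φ ψ) :
    n = 8 ∨ (n = 9 ∧ (3 : F) = 0) := by
  have hne : NeZero n := ⟨by omega⟩
  rcases le_ten h2 hM hL with h | ⟨h, h5⟩
  · by_cases h8 : n = 8
    · exact Or.inl h8
    · have h9 : n = 9 := by omega
      subst h9
      by_cases h3 : (3 : F) = 0
      · exact Or.inr ⟨rfl, h3⟩
      · exact (nine_ne h2 h3 (lift_inj' hM hL) (d3_twenty h2 h3 (by norm_num) (by norm_num) hM hL)).elim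
  · subst h
    exact (ten_ne h2 h5 (lift_inj' hM hL) (d3_twenty h2 (three_ne h2 h5) (by norm_num) (by norm_num) hM hL)).elim

/-- **the same without a lift** -/
theorem eight_or (hn : 8 ≤ n) (h2 : (2 : F) ≠ 0) (hM : MaxAlt H n φ) :
    ∃ ψ : ↥(alternatingGroup (Fin n)) →* Gh F, Lift φ ψ ∧ (n = 8 ∨ (n = 9 ∧ (3 : F) = 0)) := by
  have hne : NeZero n := ⟨by omega⟩
  obtain ⟨ψ, hψ⟩ := exists_lift8 hn h2 hM.inj
  exact ⟨ψ, hψ, le_eight hn h2 hM hψ⟩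

end

end Cfsg.Agent.R2.T1.Odd
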